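-- Team project OHYP (S5992): the cut of package [BLK] (helper59).  Interface file.
import Mathlib
import Cfsg.Agent.Lib.Helper23.OHyp.Defs

set_option autoImplicit false

namespace Cfsg.Agent.Lib.Helper59.OHyp

universe u

section defs

variable {F : Type u} [Field F] {ι : Type} [Fintype ι] [DecidableEq ι]

/-- `x` has no nonzero fixed vector in `U`. -/
def NoFix (x : Matrix ι ι F) (U : Submodule F (ι → F)) : Prop :=
  ∀ v ∈ U, x.mulVec v = v → v = 0

/-- `U` is a minimal nonzero `x`-invariant subspace. -/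
def MinInv (x : Matrix ι ι F) (U : Submodule F (ι → F)) : Prop :=
  Cfsg.Agent.Lib.Helper23.OHyp.Inv x U ∧ U ≠ ⊥ ∧
    ∀ U' : Submodule F (ι → F), U' ≤ U → Cfsg.Agent.Lib.Helper23.OHyp.Inv x U' → U' = ⊥ ∨ U' = U

/-- The cyclic subspace spanned by the vectors `x ^ k *ᵥ w`. -/
def cycSp (x : Matrix ι ι F) (w : ι → F) : Submodule F (ι → F) :=
  Submodule.span F (Set.range fun k : ℕ => (x ^ k).mulVec w)

end defs

open Cfsg.Agent.Lib.Helper23.OHyp

/-- [NOFIX] the moved space of an element of order prime to the characteristic has no fixed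
vectors. -/
def PkgNoFix : Prop :=
  ∀ (F : Type u) [Field F] (ι : Type) [Fintype ι] [DecidableEq ι]
    (r : ℕ) (x : Matrix ι ι F), (r : F) ≠ 0 → x ^ r = 1 → NoFix x (movSp x)

/-- [IRRDIM] a minimal invariant subspace without fixed vectors has dimension `i`. -/
def PkgIrrDim : Prop :=
  ∀ (F : Type u) [Field F] [Fintype F] (ι : Type) [Fintype ι] [DecidableEq ι]
    (r : ℕ) (x : Matrix ι ι F), r.Prime → ¬ r ∣ Fintype.card F → x ^ r = 1 →
    ∀ U : Submodule F (ι → F), MinInv x U → NoFix x U →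
      Module.finrank F U = ordI (Fintype.card F) r

/-- [EVENDIM] an invariant nondegenerate subspace without fixed vectors has even dimension. -/
def PkgEvenDim : Prop :=
  ∀ (F : Type u) [Field F] [Fintype F] (ι : Type) [Fintype ι] [DecidableEq ι]
    (Q : (ι → F) → F) (r : ℕ) (x : Matrix ι ι F), Std Q r x →
    ∀ U : Submodule F (ι → F), Inv x U → Nd Q U → NoFix x U → Even (Module.finrank F U)

/-- [MASCHKE] invariant complements. -/
def PkgMaschke : Prop :=
  ∀ (F : Type u) [Field F] (ι : Type) [Fintype ι] [DecidableEq ι]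
    (r : ℕ) (x : Matrix ι ι F), (r : F) ≠ 0 → x ^ r = 1 →
    ∀ W U : Submodule F (ι → F), U ≤ W → Inv x W → Inv x U →
      ∃ C : Submodule F (ι → F), C ≤ W ∧ Inv x C ∧ U ⊓ C = ⊥ ∧ U ⊔ C = W

/-- [FROB] for `i` even the adjoint of `g(x)` is `g(x) ^ (q ^ (i / 2))`. -/
def PkgFrob : Prop :=
  ∀ (F : Type u) [Field F] [Fintype F] (ι : Type) [Fintype ι] [DecidableEq ι]
    (Q : (ι → F) → F) (r : ℕ) (x : Matrix ι ι F), Std Q r x →
    Even (ordI (Fintype.card F) r) →
    ∀ (g : Polynomial F) (u v : ι → F),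
      QuadraticMap.polar Q ((Polynomial.aeval x g).mulVec u) v =
        QuadraticMap.polar Q u
          (((Polynomial.aeval x g) ^ (Fintype.card F ^ (ordI (Fintype.card F) r / 2))).mulVec v)

/-- [CYC] the cyclic subspace of a vector killed by `g(x)` has dimension at most `deg g`. -/
def PkgCyc : Prop :=
  ∀ (F : Type u) [Field F] (ι : Type) [Fintype ι] [DecidableEq ι]
    (x : Matrix ι ι F) (w : ι → F),
    Inv x (cycSp x w) ∧ w ∈ cycSp x w ∧
    (∀ W : Submodule F (ι → F), Inv x W → w ∈ W → cycSp x w ≤ W) ∧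
    ∀ g : Polynomial F, g ≠ 0 → (Polynomial.aeval x g).mulVec w = 0 →
      Module.finrank F (cycSp x w) ≤ g.natDegree

/-- [ANN] an invariant subspace is killed by a nonzero polynomial of degree at most its
dimension. -/
def PkgAnn : Prop :=
  ∀ (F : Type u) [Field F] (ι : Type) [Fintype ι] [DecidableEq ι]
    (x : Matrix ι ι F) (U : Submodule F (ι → F)), Inv x U →
    ∃ g : Polynomial F, g ≠ 0 ∧ g.natDegree ≤ Module.finrank F U ∧
      ∀ v ∈ U, (Polynomial.aeval x g).mulVec v = 0

/-- [SINGCNT] the number of singular vectors of a nondegenerate plus-type subspace. -/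
def PkgSingCnt : Prop :=
  ∀ (F : Type u) [Field F] [Fintype F] (ι : Type) [Fintype ι] [DecidableEq ι]
    (Q : (ι → F) → F), Cfsg.Geo.IsNondegenerateQuadraticForm Q → (2 : F) ≠ 0 →
    ∀ (D : Submodule F (ι → F)) (j : ℕ), Nd Q D → Plus Q D → Module.finrank F D = 2 * (j + 1) →
      Nat.card {v : ι → F // v ∈ D ∧ Q v = 0} =
        Fintype.card F ^ (2 * j + 1) + Fintype.card F ^ (j + 1) - Fintype.card F ^ j

/-- [MINUS] for `i` even a minimal invariant nondegenerate subspace is not of plus type. -/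
def PkgMinus : Prop :=
  ∀ (F : Type u) [Field F] [Fintype F] (ι : Type) [Fintype ι] [DecidableEq ι]
    (Q : (ι → F) → F) (r : ℕ) (x : Matrix ι ι F), Std Q r x →
    ∀ D : Submodule F (ι → F), MinInv x D → NoFix x D → Nd Q D →
      Even (ordI (Fintype.card F) r) → Module.finrank F D = ordI (Fintype.card F) r →
      ¬ Plus Q D

/-- [ODD] the block for `i` odd. -/
def PkgOddCase : Prop :=
  ∀ (F : Type u) [Field F] [Fintype F] (ι : Type) [Fintype ι] [DecidableEq ι]
    (Q : (ι → F) → F) (r : ℕ) (x : Matrix ι ι F), Std Q r x →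
    ∀ W : Submodule F (ι → F), Inv x W → Nd Q W → W ≠ ⊥ → NoFix x W →
      Odd (ordI (Fintype.card F) r) →
      ∃ D : Submodule F (ι → F), D ≤ W ∧ Inv x D ∧ Nd Q D ∧
        Module.finrank F D = 2 * ordI (Fintype.card F) r ∧ Plus Q D

/-- [EVEN] the block for `i` even. -/
def PkgEvenCase : Prop :=
  ∀ (F : Type u) [Field F] [Fintype F] (ι : Type) [Fintype ι] [DecidableEq ι]
    (Q : (ι → F) → F) (r : ℕ) (x : Matrix ι ι F), Std Q r x →
    ∀ W : Submodule F (ι → F), Inv x W → Nd Q W → W ≠ ⊥ → NoFix x W →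
      Even (ordI (Fintype.card F) r) →
      ∃ D : Submodule F (ι → F), D ≤ W ∧ MinInv x D ∧ Nd Q D ∧
        Module.finrank F D = ordI (Fintype.card F) r

end Cfsg.Agent.Lib.Helper59.OHyp
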