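-- Team project OHYP (S5992), package [BLK]: the case `i` odd, and the assembly (helper59).
import Mathlib
import Cfsg.Agent.Lib.Helper59.OHyp.BlkEven

set_option autoImplicit false

namespace Cfsg.Agent.Lib.Helper59.OHyp

open Cfsg.Agent.Lib.Helper23.OHyp

universe u

/-- For `i` odd a minimal invariant subspace without fixed vectors is totally singular. -/
theorem ts_of_odd (hI : PkgIrrDim.{u}) (hE : PkgEvenDim.{u})
    {F : Type u} [Field F] [Fintype F] {ι : Type} [Fintype ι] [DecidableEq ι]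
    {Q : (ι → F) → F} {r : ℕ} {x : Matrix ι ι F} (hS : Std Q r x)
    (hodd : Odd (ordI (Fintype.card F) r))
    {U : Submodule F (ι → F)} (hU : MinInv x U) (hNF : NoFix x U) :
    U ≤ perpSp Q hS.nondeg.polar_bilinear U ∧ ∀ u ∈ U, Q u = 0 := by
  have hb := hS.nondeg.polar_bilinear
  have hdim := hI F ι r x hS.prime hS.ndvd hS.pow U hU hNF
  have hle : U ≤ perpSp Q hb U := by
    rcases hU.inf_eq (inv_perpSp hb hS.prime.pos hS.pow hS.isom hU.1) with h | h
    · exfalso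
      have hev := hE F ι Q r x hS U hU.1 (nd_of_inf_perp hb h) hNF
      rw [hdim] at hev
      exact (Nat.not_even_iff_odd.2 hodd) hev
    · exact h
  refine ⟨hle, fun u hu => ?_⟩
  have h1 : QuadraticMap.polar Q u u = 0 := hle hu u hu
  have h2 : QuadraticMap.polar Q u u = 2 * Q u := by
    unfold QuadraticMap.polar
    have h3 : u + u = (2 : F) • u := (two_smul F u).symm
    rw [h3, hS.nondeg.smul]
    ring
  rw [h2] at h1
  exact (mul_eq_zero.1 h1).resolve_left hS.two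

/-- [ODD] -/
theorem pkgOddCase_of (hI : PkgIrrDim.{u}) (hE : PkgEvenDim.{u}) (hM : PkgMaschke.{u}) :
    PkgOddCase.{u} := by
  intro F _ _ ι _ _ Q r x hS W hW hNd hW0 hNF hodd
  have hb := hS.nondeg.polar_bilinear
  have hr0 : 0 < r := hS.prime.pos
  -- step 1, 2
  obtain ⟨U, hUW, hUmin⟩ := exists_minInv x _ W le_rfl hW hW0
  have hUdim := hI F ι r x hS.prime hS.ndvd hS.pow U hUmin (hNF.mono hUW)
  obtain ⟨hUts, hUQ⟩ := ts_of_odd hI hE hS hodd hUmin (hNF.mono hUW)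
  -- step 3
  have hPinv : Helper23.OHyp.Inv x (W ⊓ perpSp Q hb U) :=
    inv_inf hW (inv_perpSp hb hr0 hS.pow hS.isom hUmin.1)
  have hPne : W ⊓ perpSp Q hb U ≠ W := by
    intro h
    obtain ⟨u, hu, hu0⟩ := (Submodule.ne_bot_iff U).1 hUmin.2.1
    obtain ⟨_, ⟨v, hv, hne⟩⟩ := hNd u (hUW hu) hu0
    rw [← h] at hv
    exact hne (hv.2 u hu)
  -- step 4
  obtain ⟨C, hCW, hCinv, hdisj, hsup⟩ :=
    hM F ι r x hS.ne hS.pow W (W ⊓ perpSp Q hb U) inf_le_left hW hPinv
  have hC0 : C ≠ ⊥ := by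
    intro h
    rw [h, sup_bot_eq] at hsup
    exact hPne hsup
  -- step 5
  obtain ⟨U', hU'C, hU'min⟩ := exists_minInv x _ C le_rfl hCinv hC0
  have hU'W : U' ≤ W := hU'C.trans hCW
  have hU'dim := hI F ι r x hS.prime hS.ndvd hS.pow U' hU'min (hNF.mono hU'W)
  have hU'disj : ∀ v ∈ U', v ∈ perpSp Q hb U → v = 0 := by
    intro v hv hvp
    have : v ∈ (W ⊓ perpSp Q hb U) ⊓ C := ⟨⟨hU'W hv, hvp⟩, hU'C hv⟩
    rw [hdisj] at this
    exact (Submodule.mem_bot F).1 this
  -- step 6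
  have hUdisj : ∀ v ∈ U, v ∈ perpSp Q hb U' → v = 0 := by
    rcases hUmin.inf_eq (inv_perpSp hb hr0 hS.pow hS.isom hU'min.1) with h | h
    · intro v hv hvp
      have : v ∈ U ⊓ perpSp Q hb U' := ⟨hv, hvp⟩
      rw [h] at this
      exact (Submodule.mem_bot F).1 this
    · exfalso
      obtain ⟨u', hu', hu'0⟩ := (Submodule.ne_bot_iff U').1 hU'min.2.1
      apply hu'0
      apply hU'disj u' hu'
      intro u hu
      rw [QuadraticMap.polar_comm]
      exact h hu u' hu'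
  -- step 7
  have hinf : U ⊓ U' = ⊥ := by
    rw [eq_bot_iff]
    intro v hv
    exact (Submodule.mem_bot F).2 (hU'disj v hv.2 (hUts hv.1))
  have hfr : Module.finrank F ↥(U ⊔ U') = 2 * ordI (Fintype.card F) r := by
    have h := Submodule.finrank_sup_add_finrank_inf_eq U U'
    rw [hinf, finrank_bot, hUdim, hU'dim] at h
    omega
  refine ⟨U ⊔ U', sup_le hUW hU'W, inv_sup hUmin.1 hU'min.1, ?_, hfr, ?_⟩
  · -- step 8
    apply nd_of_inf_perp hb
    rw [eq_bot_iff]
    intro w hw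
    obtain ⟨hwD, hwp⟩ := hw
    obtain ⟨u, hu, u', hu', rfl⟩ := Submodule.mem_sup.1 hwD
    have hu'0 : u' = 0 := by
      apply hU'disj u' hu'
      intro y hy
      have h1 := hwp y (Submodule.mem_sup_left hy)
      rw [hb.add_right, hUts hu y hy, zero_add] at h1
      exact h1
    have hu0 : u = 0 := by
      apply hUdisj u hu
      intro y hy
      have h1 := hwp y (Submodule.mem_sup_right hy)
      rw [hu'0, add_zero] at h1
      exact h1
    rw [hu0, hu'0, add_zero]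
    exact Submodule.zero_mem _
  · -- step 9
    exact ⟨U, le_sup_left, hUQ, by rw [hfr, hUdim]⟩

/-- Assembly of [BLK]. -/
theorem pkgBlk_of (hO : PkgOddCase.{u}) (hEv : PkgEvenCase.{u}) (hMin : PkgMinus.{u}) :
    PkgBlk.{u} := by
  intro F _ _ ι _ _ Q r x hS W hWmov hW hNd hW0
  have hNF : NoFix x W := (pkgNoFix F ι r x hS.ne hS.pow).mono hWmov
  rcases Nat.even_or_odd (ordI (Fintype.card F) r) with hev | hodd
  · obtain ⟨D, hDW, hDmin, hDnd, hDdim⟩ := hEv F ι Q r x hS W hW hNd hW0 hNF hev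
    refine ⟨D, hDW, hDmin.1, hDnd, ?_, ?_⟩
    · rw [hDdim]
      unfold cc
      rw [if_pos hev]
    · constructor
      · intro hP
        exact absurd hP (hMin F ι Q r x hS D hDmin (hNF.mono hDW) hDnd hev hDdim)
      · intro hodd
        exact absurd hev (Nat.not_even_iff_odd.2 hodd)
  · obtain ⟨D, hDW, hDinv, hDnd, hDdim, hDplus⟩ := hO F ι Q r x hS W hW hNd hW0 hNF hodd
    refine ⟨D, hDW, hDinv, hDnd, ?_, ?_⟩
    · rw [hDdim]
      unfold cc
      rw [if_neg (Nat.not_even_iff_odd.2 hodd)]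
    · exact ⟨fun _ => hodd, fun _ => hDplus⟩

/-- [BLK] from the leaf packages. -/
theorem pkgBlk_of_leaves (hI : PkgIrrDim.{u}) (hE : PkgEvenDim.{u}) (hM : PkgMaschke.{u})
    (hF : PkgFrob.{u}) (hC : PkgCyc.{u}) (hA : PkgAnn.{u}) (hMin : PkgMinus.{u}) : PkgBlk.{u} :=
  pkgBlk_of (pkgOddCase_of hI hE hM) (pkgEvenCase_of hI hM hF hC hA) hMin

end Cfsg.Agent.Lib.Helper59.OHyp
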