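-- Team project OHYP (S5992), package [BLK]: instantiation with the landed leaves (helper59).
import Mathlib
import Cfsg.Agent.Lib.Helper59.OHyp.BlkOdd
import Cfsg.Agent.Lib.Helper77.OHyp.IrrDim
import Cfsg.Agent.Lib.Helper96.OHyp.EvenDim
import Cfsg.Agent.Lib.Helper46.OHyp.Maschke
import Cfsg.Agent.Lib.Helper25.OHyp.Frob
import Cfsg.Agent.Lib.Helper76.OHyp.Cyc
import Cfsg.Agent.Lib.Helper25.OHyp.Ann
import Cfsg.Agent.Lib.Helper79.OHyp.Minus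

set_option autoImplicit false

namespace Cfsg.Agent.Lib.Helper59.OHyp

universe u

/-- [ODD], unconditional. -/
theorem pkgOddCase : PkgOddCase.{u} :=
  pkgOddCase_of Cfsg.Agent.Lib.Helper77.OHyp.pkgIrrDim Cfsg.Agent.Lib.Helper96.OHyp.pkgEvenDim
    Cfsg.Agent.Lib.Helper46.OHyp.pkgMaschke

/-- [EVEN], unconditional. -/
theorem pkgEvenCase : PkgEvenCase.{u} :=
  pkgEvenCase_of Cfsg.Agent.Lib.Helper77.OHyp.pkgIrrDim Cfsg.Agent.Lib.Helper46.OHyp.pkgMaschke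
    Cfsg.Agent.Lib.Helper25.OHyp.pkgFrob Cfsg.Agent.Lib.Helper76.OHyp.pkgCyc
    Cfsg.Agent.Lib.Helper25.OHyp.pkgAnn

/-- [BLK] from [MINUS] alone. -/
theorem pkgBlk_of_minus (hMin : PkgMinus.{u}) : Cfsg.Agent.Lib.Helper23.OHyp.PkgBlk.{u} :=
  pkgBlk_of pkgOddCase pkgEvenCase hMin

/-- [BLK] from [SINGCNT] alone. -/
theorem pkgBlk_of_singCnt (hS : PkgSingCnt.{u}) : Cfsg.Agent.Lib.Helper23.OHyp.PkgBlk.{u} :=
  pkgBlk_of_minus (Cfsg.Agent.Lib.Helper79.OHyp.pkgMinus_of hS)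

end Cfsg.Agent.Lib.Helper59.OHyp
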