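-- Team project OHYP (S5992), package [BLK]: basic lemmas and [NOFIX] (helper59).
import Mathlib
import Cfsg.Agent.Lib.Helper59.OHyp.BlkDefs

set_option autoImplicit false
set_option linter.unusedSectionVars false

namespace Cfsg.Agent.Lib.Helper59.OHyp

open Cfsg.Agent.Lib.Helper23.OHyp

universe u

section basic

variable {F : Type u} [Field F] {ι : Type} [Fintype ι] [DecidableEq ι]

theorem inv_iff (x : Matrix ι ι F) (U : Submodule F (ι → F)) :
    Helper23.OHyp.Inv x U ↔ ∀ v ∈ U, x.mulVec v ∈ U := by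
  unfold Helper23.OHyp.Inv
  rw [Submodule.map_le_iff_le_comap]
  constructor
  · intro h v hv
    have := h hv
    simpa [Matrix.toLin'_apply] using this
  · intro h v hv
    simpa [Matrix.toLin'_apply] using h v hv

theorem inv_pow {x : Matrix ι ι F} {U : Submodule F (ι → F)} (h : Helper23.OHyp.Inv x U) (k : ℕ) :
    ∀ v ∈ U, (x ^ k).mulVec v ∈ U := by
  rw [inv_iff] at h
  induction k with
  | zero => intro v hv; simpa using hv
  | succ k ih =>
    intro v hv
    rw [pow_succ', ← Matrix.mulVec_mulVec]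
    exact h _ (ih v hv)

theorem inv_aeval {x : Matrix ι ι F} {U : Submodule F (ι → F)} (h : Helper23.OHyp.Inv x U)
    (g : Polynomial F) : ∀ v ∈ U, (Polynomial.aeval x g).mulVec v ∈ U := by
  intro v hv
  induction g using Polynomial.induction_on' with
  | add p q hp hq =>
    rw [map_add, Matrix.add_mulVec]
    exact U.add_mem hp hq
  | monomial n a =>
    rw [Polynomial.aeval_monomial, ← Algebra.smul_def, Matrix.smul_mulVec]
    exact U.smul_mem _ (inv_pow h n v hv)

theorem inv_inf {x : Matrix ι ι F} {U V : Submodule F (ι → F)} (hU : Helper23.OHyp.Inv x U) (hV : Helper23.OHyp.Inv x V) :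
    Helper23.OHyp.Inv x (U ⊓ V) := by
  rw [inv_iff] at *
  exact fun v hv => ⟨hU v hv.1, hV v hv.2⟩

theorem inv_sup {x : Matrix ι ι F} {U V : Submodule F (ι → F)} (hU : Helper23.OHyp.Inv x U) (hV : Helper23.OHyp.Inv x V) :
    Helper23.OHyp.Inv x (U ⊔ V) := by
  rw [inv_iff] at *
  intro v hv
  obtain ⟨a, ha, b, hb, rfl⟩ := Submodule.mem_sup.1 hv
  rw [Matrix.mulVec_add]
  exact Submodule.add_mem_sup (hU a ha) (hV b hb)

theorem exists_preimage {x : Matrix ι ι F} {r : ℕ} (hr : 0 < r) (hx : x ^ r = 1)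
    {U : Submodule F (ι → F)} (h : Helper23.OHyp.Inv x U) : ∀ u ∈ U, ∃ u' ∈ U, x.mulVec u' = u := by
  intro u hu
  refine ⟨(x ^ (r - 1)).mulVec u, inv_pow h _ u hu, ?_⟩
  rw [Matrix.mulVec_mulVec, ← pow_succ', Nat.sub_add_cancel hr, hx, Matrix.one_mulVec]

theorem exists_minInv (x : Matrix ι ι F) : ∀ (n : ℕ) (W : Submodule F (ι → F)),
    Module.finrank F W ≤ n → Helper23.OHyp.Inv x W → W ≠ ⊥ → ∃ U, U ≤ W ∧ MinInv x U := by
  intro n
  induction n with
  | zero =>
    intro W hn _ hW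
    exact absurd (Submodule.finrank_eq_zero.1 (Nat.le_zero.1 hn)) hW
  | succ n ih =>
    intro W hn hI hW
    by_cases hmin : ∀ U' : Submodule F (ι → F), U' ≤ W → Helper23.OHyp.Inv x U' → U' = ⊥ ∨ U' = W
    · exact ⟨W, le_rfl, hI, hW, hmin⟩
    · simp only [not_forall] at hmin
      obtain ⟨U', hle, hI', hne⟩ := hmin
      have hne' : U' ≠ ⊥ ∧ U' ≠ W := by tauto
      have hlt : Module.finrank F U' < Module.finrank F W :=
        Submodule.finrank_lt_finrank_of_lt (lt_of_le_of_ne hle hne'.2)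
      obtain ⟨U, hU, hmin⟩ := ih U' (by omega) hI' hne'.1
      exact ⟨U, hU.trans hle, hmin⟩

theorem MinInv.inf_eq {x : Matrix ι ι F} {U V : Submodule F (ι → F)} (hU : MinInv x U)
    (hV : Helper23.OHyp.Inv x V) : U ⊓ V = ⊥ ∨ U ≤ V := by
  rcases hU.2.2 (U ⊓ V) inf_le_left (inv_inf hU.1 hV) with h | h
  · exact Or.inl h
  · exact Or.inr (inf_eq_left.1 h)

theorem NoFix.mono {x : Matrix ι ι F} {U W : Submodule F (ι → F)} (h : NoFix x W)
    (hUW : U ≤ W) : NoFix x U := fun v hv => h v (hUW hv)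

/-! ### the polar form -/

variable {Q : (ι → F) → F}

theorem polar_zero_right (hb : Cfsg.Geo.IsBilinearForm (QuadraticMap.polar Q)) (u : ι → F) :
    QuadraticMap.polar Q u 0 = 0 := by
  have := hb.smul_right 0 u 0
  simpa using this

theorem polar_zero_left (hb : Cfsg.Geo.IsBilinearForm (QuadraticMap.polar Q)) (u : ι → F) :
    QuadraticMap.polar Q 0 u = 0 := by
  have := hb.smul_left 0 0 u
  simpa using this

theorem polar_isom {x : Matrix ι ι F} (hx : ∀ v, Q (x.mulVec v) = Q v) (u v : ι → F) :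
    QuadraticMap.polar Q (x.mulVec u) (x.mulVec v) = QuadraticMap.polar Q u v := by
  unfold QuadraticMap.polar
  rw [← Matrix.mulVec_add, hx, hx, hx]

/-- The orthogonal space of `U` for the polar form. -/
def perpSp (Q : (ι → F) → F) (hb : Cfsg.Geo.IsBilinearForm (QuadraticMap.polar Q))
    (U : Submodule F (ι → F)) : Submodule F (ι → F) where
  carrier := {w | ∀ u ∈ U, QuadraticMap.polar Q u w = 0}
  add_mem' := by
    intro a b ha hb' u hu
    rw [hb.add_right, ha u hu, hb' u hu, add_zero]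
  zero_mem' := fun u _ => polar_zero_right hb u
  smul_mem' := by
    intro c a ha u hu
    rw [hb.smul_right, ha u hu, mul_zero]

theorem mem_perpSp (hb : Cfsg.Geo.IsBilinearForm (QuadraticMap.polar Q))
    (U : Submodule F (ι → F)) (w : ι → F) :
    w ∈ perpSp Q hb U ↔ ∀ u ∈ U, QuadraticMap.polar Q u w = 0 := Iff.rfl

theorem inv_perpSp (hb : Cfsg.Geo.IsBilinearForm (QuadraticMap.polar Q)) {x : Matrix ι ι F}
    {r : ℕ} (hr : 0 < r) (hx : x ^ r = 1) (hQ : ∀ v, Q (x.mulVec v) = Q v)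
    {U : Submodule F (ι → F)} (h : Helper23.OHyp.Inv x U) : Helper23.OHyp.Inv x (perpSp Q hb U) := by
  rw [inv_iff]
  intro w hw u hu
  obtain ⟨u', hu', rfl⟩ := exists_preimage hr hx h u hu
  rw [polar_isom hQ]
  exact hw u' hu'

theorem nd_of_inf_perp (hb : Cfsg.Geo.IsBilinearForm (QuadraticMap.polar Q))
    {U : Submodule F (ι → F)} (h : U ⊓ perpSp Q hb U = ⊥) : Nd Q U := by
  intro w hw hw0
  have key : ∃ y ∈ U, QuadraticMap.polar Q y w ≠ 0 := by
    by_contra hcon
    have : w ∈ U ⊓ perpSp Q hb U :=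
      ⟨hw, fun u hu => by_contra fun hne => hcon ⟨u, hu, hne⟩⟩
    rw [h] at this
    exact hw0 ((Submodule.mem_bot F).1 this)
  obtain ⟨y, hy, hne⟩ := key
  exact ⟨⟨y, hy, hne⟩, ⟨y, hy, by rwa [QuadraticMap.polar_comm]⟩⟩

end basic

/-- [NOFIX] -/
theorem pkgNoFix : PkgNoFix.{u} := by
  intro F _ ι _ _ r x hr hx v hv hfix
  obtain ⟨w, rfl⟩ := hv
  have hpow : ∀ t : ℕ, (x ^ t).mulVec ((Matrix.toLin' x - 1) w) = (Matrix.toLin' x - 1) w := by
    intro t
    induction t with
    | zero => simp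
    | succ t ih => rw [pow_succ, ← Matrix.mulVec_mulVec, hfix, ih]
  have h1 : (∑ t ∈ Finset.range r, x ^ t).mulVec ((Matrix.toLin' x - 1) w) =
      (r : F) • (Matrix.toLin' x - 1) w := by
    rw [Matrix.sum_mulVec]
    rw [Finset.sum_congr rfl (fun t _ => hpow t), Finset.sum_const, Finset.card_range,
      Nat.cast_smul_eq_nsmul]
  have h2 : (∑ t ∈ Finset.range r, x ^ t).mulVec ((Matrix.toLin' x - 1) w) = 0 := by
    have h3 : (Matrix.toLin' x - 1) w = (x - 1).mulVec w := by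
      rw [LinearMap.sub_apply, Matrix.toLin'_apply, Matrix.sub_mulVec, Matrix.one_mulVec]
      rfl
    rw [h3, Matrix.mulVec_mulVec, geom_sum_mul, hx, sub_self, Matrix.zero_mulVec]
  rw [h1] at h2
  exact (smul_eq_zero.1 h2).resolve_left hr

end Cfsg.Agent.Lib.Helper59.OHyp
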